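import Mathlib
import Cfsg.Agent.Lib.Helper58.UPair.Defs
import Cfsg.Agent.Lib.Helper13.SUGen1
import Cfsg.Agent.Lib.Helper44.UnitaryTransv

/-!
# Project UPair (S5984), package [HYP] (second seat)

A subspace of `F^n` (`|F| = q²`) of dimension `2k` on which the hermitian form is non-degenerate
contains two disjoint totally singular subspaces of dimension `k`.
-/

set_option autoImplicit false

namespace Cfsg.Agent.Lib.Helper62.UPair

open Cfsg.Agent.Lib.Helper45

universe u

section Hyp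

variable {F : Type u} [Field F] [Fintype F] {q n : ℕ}

/-- `w ↦ h(w, u)` as a linear map. -/
noncomputable def hl (n : ℕ) (F : Type u) [Field F] [Fintype F] (q : ℕ) (u : Fin n → F) :
    (Fin n → F) →ₗ[F] F where
  toFun w := Cfsg.hermForm n F q w u
  map_add' w w' := herm_add_left n w w' u
  map_smul' c w := by
    rw [herm_smul_left]; rfl

theorem hl_apply (u w : Fin n → F) : hl n F q u w = Cfsg.hermForm n F q w u := rfl

/-- A subspace of dimension at least two contains a nonzero isotropic vector. -/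
theorem exists_isotropic (hF : Fintype.card F = q ^ 2) (W : Submodule F (Fin n → F))
    (hW : 2 ≤ Module.finrank F W) :
    ∃ u ∈ W, u ≠ 0 ∧ Cfsg.hermForm n F q u u = 0 := by
  have hq : q ≠ 0 := by have := two_le_q hF; omega
  obtain ⟨w1, hw1⟩ :=
    Module.finrank_pos_iff_exists_ne_zero.mp (show 0 < Module.finrank F W by omega)
  have hw10 : (w1 : Fin n → F) ≠ 0 := fun h0 => hw1 (Subtype.ext h0)
  by_cases h1 : Cfsg.hermForm n F q (w1 : Fin n → F) w1 = 0
  · exact ⟨w1, w1.2, hw10, h1⟩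
  obtain ⟨φ, hφ⟩ : ∃ φ : W →ₗ[F] F, φ = (hl n F q (w1 : Fin n → F)).comp W.subtype := ⟨_, rfl⟩
  have hrk := LinearMap.finrank_range_add_finrank_ker φ
  have hr1 : Module.finrank F (LinearMap.range φ) ≤ 1 := by
    have := Submodule.finrank_le (LinearMap.range φ)
    rwa [Module.finrank_self] at this
  have hk : LinearMap.ker φ ≠ ⊥ := by
    intro h0
    rw [h0, finrank_bot] at hrk
    omega
  obtain ⟨w2, hw2m, hw2⟩ := (Submodule.ne_bot_iff _).mp hk
  have hw2k : φ w2 = 0 := LinearMap.mem_ker.mp hw2m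
  have h21 : Cfsg.hermForm n F q (w2 : Fin n → F) w1 = 0 := by
    rw [hφ] at hw2k; exact hw2k
  have hw20 : (w2 : Fin n → F) ≠ 0 := fun h0 => hw2 (Subtype.ext h0)
  by_cases h2 : Cfsg.hermForm n F q (w2 : Fin n → F) w2 = 0
  · exact ⟨_, w2.2, hw20, h2⟩
  obtain ⟨a, ha⟩ : ∃ a : Fin n → F, a = (w1 : Fin n → F) := ⟨_, rfl⟩
  obtain ⟨b, hb⟩ : ∃ b : Fin n → F, b = (w2 : Fin n → F) := ⟨_, rfl⟩
  have haW : a ∈ W := ha ▸ w1.2
  have hbW : b ∈ W := hb ▸ w2.2
  rw [← ha] at h1 hw10 h21
  rw [← hb] at h2 hw20 h21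
  have h12 : Cfsg.hermForm n F q a b = 0 := by rw [← herm_conj hF, h21, zero_pow hq]
  obtain ⟨α, hα⟩ : ∃ α : F, α = Cfsg.hermForm n F q a a := ⟨_, rfl⟩
  obtain ⟨β, hβ⟩ : ∃ β : F, β = Cfsg.hermForm n F q b b := ⟨_, rfl⟩
  have hαq : α ^ q = α := by rw [hα, herm_conj hF]
  have hβq : β ^ q = β := by rw [hβ, herm_conj hF]
  have hα0 : α ≠ 0 := hα ▸ h1
  have hβ0 : β ≠ 0 := hβ ▸ h2
  have hc0 : -α / β ≠ 0 := div_ne_zero (neg_ne_zero.mpr hα0) hβ0
  have hcq : (-α / β) ^ q = -α / β := by rw [div_pow, conj_neg hF, hαq, hβq]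
  obtain ⟨c, hc⟩ := Cfsg.Agent.Lib.Helper44.exists_norm_eq hF (-α / β) hc0 hcq
  refine ⟨a + c • b, W.add_mem haW (W.smul_mem c hbW), ?_, ?_⟩
  · intro h0
    have h3 : Cfsg.hermForm n F q (a + c • b) a = 0 := by rw [h0, herm_zero_left hF]
    rw [herm_add_left, herm_smul_left, h21, mul_zero, add_zero] at h3
    exact h1 h3
  · rw [herm_add_left, herm_smul_left, herm_add_right hF, herm_add_right hF, herm_smul_right,
      herm_smul_right, h12, h21, ← hα, ← hβ]
    have e : c * (c ^ q * β) = c ^ (q + 1) * β := by ring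
    rw [mul_zero, add_zero, zero_add, e, hc, div_mul_cancel₀ _ hβ0, add_neg_cancel]

/-- An isotropic vector of a non-degenerate subspace has an isotropic partner. -/
theorem exists_partner (hF : Fintype.card F = q ^ 2) (W : Submodule F (Fin n → F))
    (hnd : ∀ u ∈ W, u ≠ 0 → ∃ v ∈ W, Cfsg.hermForm n F q u v ≠ 0) (u : Fin n → F) (hu : u ∈ W)
    (hu0 : u ≠ 0) (huu : Cfsg.hermForm n F q u u = 0) :
    ∃ v ∈ W, Cfsg.hermForm n F q u v = 1 ∧ Cfsg.hermForm n F q v v = 0 := by
  obtain ⟨v0, hv0, hne⟩ := hnd u hu hu0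
  obtain ⟨a, ha⟩ : ∃ a : F, a = Cfsg.hermForm n F q u v0 := ⟨_, rfl⟩
  rw [← ha] at hne
  obtain ⟨v1, hv1⟩ : ∃ v1 : Fin n → F, v1 = (a⁻¹ ^ q) • v0 := ⟨_, rfl⟩
  have hv1W : v1 ∈ W := hv1 ▸ W.smul_mem _ hv0
  have huv1 : Cfsg.hermForm n F q u v1 = 1 := by
    rw [hv1, herm_smul_right, conj_conj hF, ← ha, inv_mul_cancel₀ hne]
  have hv1u : Cfsg.hermForm n F q v1 u = 1 := by rw [← herm_conj hF, huv1, one_pow]
  obtain ⟨γ, hγ⟩ : ∃ γ : F, γ = Cfsg.hermForm n F q v1 v1 := ⟨_, rfl⟩
  have hγq : γ ^ q = γ := by rw [hγ, herm_conj hF]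
  obtain ⟨t, ht⟩ := Cfsg.Agent.Lib.Helper13.exists_trace_eq hF (-γ) (by rw [conj_neg hF, hγq])
  refine ⟨v1 + t • u, W.add_mem hv1W (W.smul_mem t hu), ?_, ?_⟩
  · rw [herm_add_right hF, herm_smul_right, huu, mul_zero, add_zero, huv1]
  · rw [herm_add_left, herm_smul_left, herm_add_right hF, herm_add_right hF, herm_smul_right,
      herm_smul_right, huu, huv1, hv1u, ← hγ]
    linear_combination ht

/-- Adding an isotropic vector orthogonal to a totally singular subspace. -/
theorem ts_sup (hF : Fintype.card F = q ^ 2) {u : Fin n → F} {U1 : Submodule F (Fin n → F)}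
    (huu : Cfsg.hermForm n F q u u = 0)
    (hU1 : Cfsg.Geo.IsTotallySingularFor (Cfsg.hermForm n F q) U1)
    (hperp : ∀ x ∈ U1, Cfsg.hermForm n F q x u = 0) :
    Cfsg.Geo.IsTotallySingularFor (Cfsg.hermForm n F q) (Submodule.span F {u} ⊔ U1) := by
  have hq : q ≠ 0 := by have := two_le_q hF; omega
  intro x hx y hy
  obtain ⟨x0, hx0, x1, hx1, rfl⟩ := Submodule.mem_sup.mp hx
  obtain ⟨y0, hy0, y1, hy1, rfl⟩ := Submodule.mem_sup.mp hy
  obtain ⟨a, rfl⟩ := Submodule.mem_span_singleton.mp hx0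
  obtain ⟨b, rfl⟩ := Submodule.mem_span_singleton.mp hy0
  have h1 : Cfsg.hermForm n F q u y1 = 0 := by rw [← herm_conj hF, hperp y1 hy1, zero_pow hq]
  rw [herm_add_left, herm_smul_left, herm_add_right hF, herm_add_right hF, herm_smul_right,
    herm_smul_right, huu, h1, hperp x1 hx1, hU1 x1 hx1 y1 hy1]
  ring

omit [Fintype F] in
/-- The dimension of `⟨u⟩ ⊔ U1` when `⟨u⟩` meets `U1` trivially. -/
theorem finrank_span_sup {u : Fin n → F} (hu0 : u ≠ 0) (U1 : Submodule F (Fin n → F))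
    (hd : ∀ a : F, a • u ∈ U1 → a = 0) :
    Module.finrank F ↥(Submodule.span F {u} ⊔ U1) = Module.finrank F U1 + 1 := by
  have h1 := Submodule.finrank_sup_add_finrank_inf_eq (Submodule.span F {u}) U1
  have h2 : Submodule.span F {u} ⊓ U1 = ⊥ := by
    rw [eq_bot_iff]
    rintro x ⟨hx0, hx1⟩
    obtain ⟨a, rfl⟩ := Submodule.mem_span_singleton.mp hx0
    rw [hd a hx1, zero_smul]; exact Submodule.zero_mem _
  rw [h2, finrank_bot, finrank_span_singleton hu0] at h1
  omega

theorem hyp_aux (hF : Fintype.card F = q ^ 2) : ∀ (k : ℕ) (W : Submodule F (Fin n → F)),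
    (∀ u ∈ W, u ≠ 0 → ∃ v ∈ W, Cfsg.hermForm n F q u v ≠ 0) → Module.finrank F W = 2 * k →
    ∃ U U' : Submodule F (Fin n → F), U ≤ W ∧ U' ≤ W ∧
      Cfsg.Geo.IsTotallySingularFor (Cfsg.hermForm n F q) U ∧
      Cfsg.Geo.IsTotallySingularFor (Cfsg.hermForm n F q) U' ∧
      Module.finrank F U = k ∧ Module.finrank F U' = k ∧ Disjoint U U' := by
  intro k
  induction k with
  | zero =>
    intro W _ _
    have hts : Cfsg.Geo.IsTotallySingularFor (Cfsg.hermForm n F q)
        (⊥ : Submodule F (Fin n → F)) := by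
      intro x hx y _
      rw [(Submodule.mem_bot F).mp hx, herm_zero_left hF]
    exact ⟨⊥, ⊥, bot_le, bot_le, hts, hts, finrank_bot F _, finrank_bot F _, disjoint_bot_left⟩
  | succ k ih =>
    intro W hnd hdim
    have hq : q ≠ 0 := by have := two_le_q hF; omega
    obtain ⟨u, huW, hu0, huu⟩ := exists_isotropic hF W (by omega)
    obtain ⟨v, hvW, huv, hvv⟩ := exists_partner hF W hnd u huW hu0 huu
    have hvu : Cfsg.hermForm n F q v u = 1 := by rw [← herm_conj hF, huv, one_pow]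
    have hv0 : v ≠ 0 := by
      rintro rfl
      rw [herm_zero_left hF] at hvu
      exact zero_ne_one hvu
    obtain ⟨W', hW'⟩ : ∃ W' : Submodule F (Fin n → F),
        W' = W ⊓ (LinearMap.ker (hl n F q u) ⊓ LinearMap.ker (hl n F q v)) := ⟨_, rfl⟩
    have hmem : ∀ w, w ∈ W' ↔
        w ∈ W ∧ Cfsg.hermForm n F q w u = 0 ∧ Cfsg.hermForm n F q w v = 0 := by
      intro w
      rw [hW']
      simp only [Submodule.mem_inf, LinearMap.mem_ker, hl_apply]
    have hproj : ∀ x ∈ W,
        x - Cfsg.hermForm n F q x v • u - Cfsg.hermForm n F q x u • v ∈ W' := by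
      intro x hx
      rw [hmem]
      refine ⟨W.sub_mem (W.sub_mem hx (W.smul_mem _ huW)) (W.smul_mem _ hvW), ?_, ?_⟩
      · rw [herm_sub_left, herm_sub_left, herm_smul_left, herm_smul_left, huu, hvu]; ring
      · rw [herm_sub_left, herm_sub_left, herm_smul_left, herm_smul_left, huv, hvv]; ring
    have hnd' : ∀ w ∈ W', w ≠ 0 → ∃ x ∈ W', Cfsg.hermForm n F q w x ≠ 0 := by
      intro w hw hw0
      obtain ⟨hwW, hwu, hwv⟩ := (hmem w).mp hw
      obtain ⟨x, hx, hne⟩ := hnd w hwW hw0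
      refine ⟨_, hproj x hx, ?_⟩
      rw [herm_sub_right hF, herm_sub_right hF, herm_smul_right, herm_smul_right, hwu, hwv,
        mul_zero, mul_zero, sub_zero, sub_zero]
      exact hne
    have hdim' : Module.finrank F W' = 2 * k := by
      obtain ⟨φ, hφ⟩ : ∃ φ : W →ₗ[F] F × F,
          φ = ((hl n F q u).prod (hl n F q v)).comp W.subtype := ⟨_, rfl⟩
      have hφa : ∀ w : W, φ w = (Cfsg.hermForm n F q (w : Fin n → F) u,
          Cfsg.hermForm n F q (w : Fin n → F) v) := by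
        intro w; rw [hφ]; rfl
      have hsurj : Function.Surjective φ := by
        rintro ⟨a, b⟩
        refine ⟨⟨a • v + b • u, W.add_mem (W.smul_mem a hvW) (W.smul_mem b huW)⟩, ?_⟩
        rw [hφa]
        show (Cfsg.hermForm n F q (a • v + b • u) u, Cfsg.hermForm n F q (a • v + b • u) v)
          = (a, b)
        rw [herm_add_left, herm_add_left, herm_smul_left, herm_smul_left, herm_smul_left,
          herm_smul_left, hvu, huu, hvv, huv]
        simp
      have hker : (LinearMap.ker φ).map W.subtype = W' := by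
        ext w
        rw [hmem]
        constructor
        · rintro ⟨x, hx, rfl⟩
          have h0 := LinearMap.mem_ker.mp hx
          rw [hφa] at h0
          exact ⟨x.2, (Prod.mk_eq_zero.mp h0).1, (Prod.mk_eq_zero.mp h0).2⟩
        · rintro ⟨hwW, hwu, hwv⟩
          refine ⟨⟨w, hwW⟩, ?_, rfl⟩
          rw [SetLike.mem_coe, LinearMap.mem_ker, hφa]
          show (Cfsg.hermForm n F q w u, Cfsg.hermForm n F q w v) = 0
          rw [hwu, hwv]; rfl
      have h1 := LinearMap.finrank_range_add_finrank_ker φ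
      rw [LinearMap.range_eq_top.mpr hsurj, finrank_top, Module.finrank_prod,
        Module.finrank_self] at h1
      have h2 : Module.finrank F W' = Module.finrank F (LinearMap.ker φ) := by
        rw [← hker]; exact Submodule.finrank_map_subtype_eq W (LinearMap.ker φ)
      omega
    obtain ⟨U1, U1', hU1, hU1', hts, hts', hd, hd', hdis⟩ := ih W' hnd' hdim'
    have hW'W : W' ≤ W := fun w hw => ((hmem w).mp hw).1
    refine ⟨Submodule.span F {u} ⊔ U1, Submodule.span F {v} ⊔ U1', ?_, ?_, ?_, ?_, ?_, ?_, ?_⟩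
    · exact sup_le ((Submodule.span_singleton_le_iff_mem u W).mpr huW) (hU1.trans hW'W)
    · exact sup_le ((Submodule.span_singleton_le_iff_mem v W).mpr hvW) (hU1'.trans hW'W)
    · exact ts_sup hF huu hts (fun x hx => ((hmem x).mp (hU1 hx)).2.1)
    · exact ts_sup hF hvv hts' (fun x hx => ((hmem x).mp (hU1' hx)).2.2)
    · rw [finrank_span_sup hu0 U1, hd]
      intro a ha
      have h3 := ((hmem _).mp (hU1 ha)).2.2
      rwa [herm_smul_left, huv, mul_one] at h3
    · rw [finrank_span_sup hv0 U1', hd']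
      intro a ha
      have h3 := ((hmem _).mp (hU1' ha)).2.1
      rwa [herm_smul_left, hvu, mul_one] at h3
    · rw [Submodule.disjoint_def]
      intro x hx hx'
      obtain ⟨x0, hx0, x1, hx1, rfl⟩ := Submodule.mem_sup.mp hx
      obtain ⟨y0, hy0, y1, hy1, hxy⟩ := Submodule.mem_sup.mp hx'
      obtain ⟨a, rfl⟩ := Submodule.mem_span_singleton.mp hx0
      obtain ⟨b, rfl⟩ := Submodule.mem_span_singleton.mp hy0
      have hx1W := (hmem x1).mp (hU1 hx1)
      have hy1W := (hmem y1).mp (hU1' hy1)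
      have ha : a = 0 := by
        have e : Cfsg.hermForm n F q (b • v + y1) v = Cfsg.hermForm n F q (a • u + x1) v := by
          rw [hxy]
        rw [herm_add_left, herm_add_left, herm_smul_left, herm_smul_left, hvv, huv, hx1W.2.2,
          hy1W.2.2] at e
        simpa using e.symm
      have hb : b = 0 := by
        have e : Cfsg.hermForm n F q (b • v + y1) u = Cfsg.hermForm n F q (a • u + x1) u := by
          rw [hxy]
        rw [herm_add_left, herm_add_left, herm_smul_left, herm_smul_left, hvu, huu, hx1W.2.1,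
          hy1W.2.1] at e
        simpa using e
      rw [ha, zero_smul, zero_add] at hxy ⊢
      rw [hb, zero_smul, zero_add] at hxy
      have h4 : x1 ∈ U1 ⊓ U1' := ⟨hx1, hxy ▸ hy1⟩
      rw [hdis.eq_bot] at h4
      exact (Submodule.mem_bot F).mp h4

end Hyp

/-- **[HYP]** a non-degenerate subspace of even dimension `2k` contains two disjoint totally
singular `k`-spaces. -/
theorem pkgHyp : Cfsg.Agent.Lib.Helper58.UPair.PkgHyp.{u} :=
  fun _ _ _ _ _ k W hF hnd hdim => hyp_aux hF k W hnd hdim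

end Cfsg.Agent.Lib.Helper62.UPair
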